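import Cfsg.Statements.S4317
import Cfsg.Agent.S4318
import Cfsg.Agent.Zel.Grp.Final

set_option autoImplicit false
universe u
open Cfsg

namespace Cfsg.Agent.S4317

/-- There is a function `f` of two natural-number arguments with the following property. Let `q` be a prime and `A` an elementary abelian group of order `q³` acting by automorphisms on a finite group `G` of order prime to `q`, and suppose that for every non-identity `a ∈ A` the derived subgroup of `C_G(a)` has exponent dividing the positive integer `m`. Then the exponent of the derived subgroup of `G` is at most `f(q, m)`. -/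
theorem result :
    ∃ f : ℕ → ℕ → ℕ, ∀ (q m : ℕ) (A G : Type u) [Group A] [Finite A] [Group G] [Finite G] [MulDistribMulAction A G],
      q.Prime → 0 < m → Nat.card A = q ^ 3 → (∀ a b : A, a * b = b * a) → (∀ a : A, a ^ q = 1) → ¬ q ∣ Nat.card G →
      (∀ a : A, a ≠ 1 → Monoid.exponent ↥(commutator ↥(FixedPoints.subgroup (Subgroup.zpowers a) G)) ∣ m) →
      Monoid.exponent ↥(commutator G) ≤ f q m :=
  Cfsg.Agent.Zel.Grp.main4317 Cfsg.Agent.Zel.Grp.assocThmAll
    (fun _ _ _ _ _ _ _ q hq hA hc he hG p _ P hP =>
      Cfsg.Agent.S4318.result q hq hA hc he hG p P hP)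

end Cfsg.Agent.S4317
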