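import Cfsg.Statements.S5591
import Cfsg.Agent.B5591.Asm
import Cfsg.Agent.B5591.Neg

set_option autoImplicit false
open Cfsg

namespace Cfsg.Agent.S5591

/-- Let ρ be a faithful linear representation of the Baby Monster of degree 4371 over the field of three elements. Then there is, up to isomorphism, exactly one non-split extension of the Baby Monster by the corresponding module: some group E with an abelian normal subgroup A, E/A identified with the Baby Monster and A identified additively with the module compatibly with ρ, has no complement to A; and any two such non-split groups are isomorphic. -/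
theorem result (ρ : Cfsg.Spor.BabyMonster →* GL (Fin 4371) (ZMod 3)) (hρ : Function.Injective ρ) :
    (∃ (E : Type) (_ : Group E) (A : Subgroup E) (_ : A.Normal) (e : E ⧸ A ≃* Cfsg.Spor.BabyMonster) (φ : Additive ↥A ≃+ (Fin 4371 → ZMod 3)),
      (∀ (g : E) (a b : ↥A), (b : E) = g * a * g⁻¹ → φ (Additive.ofMul b) =
        (ρ (e (QuotientGroup.mk g)) : Matrix (Fin 4371) (Fin 4371) (ZMod 3)).mulVec (φ (Additive.ofMul a))) ∧
      ∀ K : Subgroup E, ¬ A.IsComplement' K) ∧
    ∀ (E : Type*) [Group E] (A : Subgroup E) [A.Normal] (e : E ⧸ A ≃* Cfsg.Spor.BabyMonster) (φ : Additive ↥A ≃+ (Fin 4371 → ZMod 3)),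
      (∀ (g : E) (a b : ↥A), (b : E) = g * a * g⁻¹ → φ (Additive.ofMul b) =
        (ρ (e (QuotientGroup.mk g)) : Matrix (Fin 4371) (Fin 4371) (ZMod 3)).mulVec (φ (Additive.ofMul a))) →
      (∀ K : Subgroup E, ¬ A.IsComplement' K) →
      ∀ (E' : Type*) [Group E'] (A' : Subgroup E') [A'.Normal] (e' : E' ⧸ A' ≃* Cfsg.Spor.BabyMonster) (φ' : Additive ↥A' ≃+ (Fin 4371 → ZMod 3)),
        (∀ (g : E') (a b : ↥A'), (b : E') = g * a * g⁻¹ → φ' (Additive.ofMul b) =
          (ρ (e' (QuotientGroup.mk g)) : Matrix (Fin 4371) (Fin 4371) (ZMod 3)).mulVec (φ' (Additive.ofMul a))) →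
        (∀ K : Subgroup E', ¬ A'.IsComplement' K) → Nonempty (E ≃* E') := by
  exact Cfsg.Agent.B5591.Geo.final Cfsg.Agent.B5591.Neg.boxNeg Cfsg.Agent.B5591.Geo.boxKS Cfsg.Agent.B5591.Geo.boxSyl
    Cfsg.Agent.B5591.Geo.boxR Cfsg.Agent.B5591.Geo.boxLG Cfsg.Agent.B5591.Geo.boxA0 Cfsg.Agent.B5591.Geo.locA ρ hρ

end Cfsg.Agent.S5591
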